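import Cfsg.Agent.H129.TwT
import Cfsg.Agent.H129.DataD4C

/-!
# The torus of order `q⁴ - q² + 1` of `³D₄(q)` and an element of order 4 normalising it (helper512)

* `conj_torus` : a cyclic subgroup which is the centraliser of each of its non-trivial elements is conjugate to every
  subgroup generated by an element of the same order;
* `exists_four` : `x` of order `q⁴ - q² + 1` in `³D₄(q)`: an element `w` of order 4 with `w x w⁻¹ = x^(q³)`, and
  `w² x w⁻² = x⁻¹`; moreover `C(x) = ⟨x⟩`.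
-/

set_option autoImplicit false

namespace Cfsg.Agent.H512.TDFour

open Subgroup Cfsg Cfsg.Lie Cfsg.Agent.H129

section Abs

variable {G : Type*} [Group G] [Finite G]

/-- **Conjugacy into an isolated torus.** -/
theorem conj_torus {T : Subgroup G} (h1 : Nat.card T ≠ 1) (hT : ∀ y ∈ T, y ≠ 1 → centralizer {y} ≤ T)
    {x : G} (hx : orderOf x = Nat.card T) : ∃ g : G, g * x * g⁻¹ ∈ T ∧ zpowers (g * x * g⁻¹) = T := by
  obtain ⟨r, hr, hrT⟩ := Nat.exists_prime_and_dvd h1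
  have : Fact r.Prime := ⟨hr⟩
  obtain ⟨t, ht⟩ := exists_prime_orderOf_dvd_card' (G := T) r hrT
  have ht' : orderOf (t : G) = r := by rw [Subgroup.orderOf_coe, ht]
  have hzp : IsPGroup r (zpowers (t : G)) := by
    rw [IsPGroup.iff_card]
    exact ⟨1, by rw [Nat.card_zpowers, ht', pow_one]⟩
  obtain ⟨P, hP⟩ := hzp.exists_le_sylow
  have htP : (t : G) ∈ (P : Subgroup G) := hP (mem_zpowers _)
  have ht1 : (t : G) ≠ 1 := by
    intro h
    rw [h, orderOf_one] at ht'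
    exact hr.one_lt.ne ht'
  have hnt : Nontrivial (P : Subgroup G) := ⟨⟨⟨t, htP⟩, 1, fun h => ht1 (congrArg Subtype.val h)⟩⟩
  have hcn := P.isPGroup'.center_nontrivial
  obtain ⟨z, hz1⟩ := exists_ne (1 : center (P : Subgroup G))
  have hz1' : ((z : (P : Subgroup G)) : G) ≠ 1 := fun h => hz1 (Subtype.ext (Subtype.ext h))
  have hzc : ∀ g ∈ (P : Subgroup G), g * (z : (P : Subgroup G)) = (z : (P : Subgroup G)) * g := fun g hg =>
    congrArg Subtype.val (Subgroup.mem_center_iff.1 z.2 ⟨g, hg⟩)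
  have hzT : ((z : (P : Subgroup G)) : G) ∈ T := by
    refine hT t t.2 ht1 ?_
    rw [mem_centralizer_singleton_iff]
    exact (hzc _ htP).symm
  have hPT : (P : Subgroup G) ≤ T := by
    intro g hg
    refine hT _ hzT hz1' ?_
    rw [mem_centralizer_singleton_iff]
    exact hzc g hg
  -- the element of order `r` in `⟨x⟩`
  have hrx : r ∣ orderOf x := hx ▸ hrT
  have hx0 : orderOf x ≠ 0 := (orderOf_pos x).ne'
  have hy : orderOf (x ^ (orderOf x / r)) = r := orderOf_pow_orderOf_div hx0 hrx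
  have hyp : IsPGroup r (zpowers (x ^ (orderOf x / r))) := by
    rw [IsPGroup.iff_card]
    exact ⟨1, by rw [Nat.card_zpowers, hy, pow_one]⟩
  obtain ⟨Q, hQ⟩ := hyp.exists_le_sylow
  obtain ⟨g, hg⟩ := MulAction.exists_smul_eq G Q P
  refine ⟨g, ?_⟩
  have h2 : g * x ^ (orderOf x / r) * g⁻¹ ∈ (P : Subgroup G) := by
    rw [← hg]
    exact Subgroup.smul_mem_pointwise_smul _ (MulAut.conj g) _ (hQ (mem_zpowers _))
  have h3 : g * x * g⁻¹ ∈ T := by
    refine hT _ (hPT h2) (fun h => ?_) ?_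
    · have h4 : x ^ (orderOf x / r) = 1 := by
        have : x ^ (orderOf x / r) = g⁻¹ * (g * x ^ (orderOf x / r) * g⁻¹) * g := by group
        rw [this, h]
        group
      rw [h4, orderOf_one] at hy
      exact hr.one_lt.ne hy
    · rw [mem_centralizer_singleton_iff]
      have h5 : x * x ^ (orderOf x / r) = x ^ (orderOf x / r) * x := (Commute.self_pow x _).eq
      calc g * x * g⁻¹ * (g * x ^ (orderOf x / r) * g⁻¹) = g * (x * x ^ (orderOf x / r)) * g⁻¹ := by group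
        _ = g * (x ^ (orderOf x / r) * x) * g⁻¹ := by rw [h5]
        _ = g * x ^ (orderOf x / r) * g⁻¹ * (g * x * g⁻¹) := by group
  refine ⟨h3, Subgroup.eq_of_le_of_card_ge (zpowers_le.2 h3) ?_⟩
  rw [Nat.card_zpowers, ← hx]
  have : orderOf (g * x * g⁻¹) = orderOf x := by
    have := orderOf_injective (MulAut.conj g).toMonoidHom (MulAut.conj g).injective x
    exact this
  rw [this]

end Abs

/-- arithmetic of `q⁴ - q² + 1` -/
theorem num_facts {q N : ℕ} (hq : 2 ≤ q) (hN : (N : ℤ) = 1 - (q : ℤ) ^ 2 + (q : ℤ) ^ 4) :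
    Odd N ∧ 1 < N ∧ (q ^ 2 + 1) * N = q ^ 6 + 1 := by
  refine ⟨?_, ?_, ?_⟩
  · have h : Even ((q : ℤ) ^ 4 - (q : ℤ) ^ 2) := by
      rcases Int.even_or_odd (q : ℤ) with h | h
      · exact (h.pow_of_ne_zero (by norm_num)).sub (h.pow_of_ne_zero (by norm_num))
      · exact (h.pow).sub_odd h.pow
    have h2 : Odd (N : ℤ) := by
      rw [hN, show (1 : ℤ) - (q : ℤ) ^ 2 + (q : ℤ) ^ 4 = ((q : ℤ) ^ 4 - (q : ℤ) ^ 2) + 1 by ring]
      exact h.add_one
    exact_mod_cast h2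
  · zify
    rw [hN]
    have h2 : (2 : ℤ) ≤ q := by exact_mod_cast hq
    have h4 : (4 : ℤ) ≤ (q : ℤ) ^ 2 := by nlinarith
    nlinarith [mul_pos (show (0 : ℤ) < (q : ℤ) ^ 2 by positivity) (show (0 : ℤ) < (q : ℤ) ^ 2 - 1 by linarith)]
  · zify
    rw [hN]
    ring

theorem cast_num {q : ℕ} (hq : 1 ≤ q) : ((q ^ 4 - q ^ 2 + 1 : ℕ) : ℤ) = 1 - (q : ℤ) ^ 2 + (q : ℤ) ^ 4 := by
  have h : q ^ 2 ≤ q ^ 4 := Nat.pow_le_pow_right hq (by norm_num)
  push_cast [Nat.cast_sub h]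
  ring

theorem prime_facts {q N : ℕ} (hN : (N : ℤ) = 1 - (q : ℤ) ^ 2 + (q : ℤ) ^ 4) {r : ℕ} (hrN : r ∣ N) :
    r ≠ 2 ∧ r ≠ 3 := by
  have hz : (1 - (q : ZMod r) ^ 2 + (q : ZMod r) ^ 4 = 0) := by
    have h1 : ((N : ℤ) : ZMod r) = 0 := by
      rw [Int.cast_natCast]
      exact (ZMod.natCast_eq_zero_iff N r).2 hrN
    rw [hN] at h1
    push_cast at h1
    exact h1
  constructor
  · rintro rfl
    generalize (q : ZMod 2) = x at hz; revert hz; revert x; decide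
  · rintro rfl
    generalize (q : ZMod 3) = x at hz; revert hz; revert x; decide

/-- **The torus of order `q⁴ - q² + 1`.** -/
theorem exists_torus {K : Type} [Field K] [Fintype K] {q : ℕ} (hq : IsPrimePow q) (hK : Fintype.card K = q ^ 3)
    {N : ℕ} (hN : (N : ℤ) = 1 - (q : ℤ) ^ 2 + (q : ℤ) ^ 4) :
    ∃ T : Subgroup ↥(twistedD4 K q), Nat.card T = N ∧ IsCyclic T ∧ (∀ y ∈ T, y ≠ 1 → centralizer {y} ≤ T) ∧
      ∃ y : ↥(twistedD4 K q), ∀ b ∈ T, y * b ^ (q ^ 3) * y⁻¹ = b := by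
  obtain ⟨T, h1, h3, h5, h6⟩ := TwT.tri_T hq hK DataD4C.hA DataD4C.chainOK DataD4C.hd_pi DataD4C.cycOK DataD4C.rootOK
    DataD4C.chain2OK DataD4C.hd2_eq (N := N)
    (by rw [DataD4C.fN_eq, hN]) (UntwData.coprime_of_eq (a := -(q : ℤ) + (q : ℤ) ^ 3) (by rw [hN]; ring))
  have hprime : ∀ r : ℕ, r.Prime → r ∣ N → ¬ r ∣ Nat.card coxeterD4.Group ∧
      ∀ s, ¬ (r : ℤ) ∣ TorusTw.Gq DataD4C.B (q : ℤ) (DataD4C.R s) := by
    intro r hr hrN
    obtain ⟨h2, h3⟩ := prime_facts hN hrN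
    refine ⟨TwD4Cyc.not_dvd_W hr h2 h3, fun s hs => ?_⟩
    have h4 := DataD4C.dvd_of_G (x := (q : ℤ)) (r := (r : ℤ)) (by rw [← hN]; exact_mod_cast hrN) s hs
    have h5 : (r : ℤ) ∣ ((1 : ℕ) : ℤ) := by exact_mod_cast h4
    exact hr.one_lt.ne' (Nat.dvd_one.1 (Int.natCast_dvd_natCast.1 h5))
  obtain ⟨hodd, hN1, -⟩ := num_facts hq.two_le hN
  refine ⟨T, h3, h1, fun y hy hy1 => ?_, ?_⟩
  · obtain ⟨r, hr, hry⟩ := Nat.exists_prime_and_dvd (n := orderOf y) (fun h => hy1 (orderOf_eq_one_iff.1 h))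
    have hyN : orderOf y ∣ N := by
      rw [← h3]
      have := orderOf_dvd_natCard (⟨y, hy⟩ : ↥T)
      rwa [Subgroup.orderOf_mk] at this
    obtain ⟨h7, h8⟩ := hprime r hr (hry.trans hyN)
    have h9 : orderOf (y ^ (orderOf y / r)) = r :=
      orderOf_pow_orderOf_div (orderOf_pos y).ne' hry
    refine le_trans ?_ (h5 r hr h7 h8 _ (T.pow_mem hy _) h9)
    intro g hg
    rw [mem_centralizer_singleton_iff] at hg ⊢
    exact ((show Commute g y from hg).pow_right _).eq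
  · obtain ⟨r, hr, hrN⟩ := Nat.exists_prime_and_dvd hN1.ne'
    obtain ⟨h7, h8⟩ := hprime r hr hrN
    exact h6 r hr hrN h7 h8

/-- **An element of order 4 normalising `⟨x⟩`.** -/
theorem exists_four {K : Type} [Field K] [Fintype K] {q : ℕ} (hq : IsPrimePow q) (hK : Fintype.card K = q ^ 3)
    {x : ↥(twistedD4 K q)} (hx : orderOf x = q ^ 4 - q ^ 2 + 1) :
    centralizer {x} = zpowers x ∧
    ∃ w : ↥(twistedD4 K q), w * x * w⁻¹ = x ^ (q ^ 3) ∧ orderOf w = 4 ∧ w ^ 2 * x * (w ^ 2)⁻¹ = x⁻¹ ∧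
      (w ^ 2) ^ 2 = 1 ∧ w ^ 2 ≠ 1 := by
  have hN := cast_num (q := q) hq.pos
  set N := q ^ 4 - q ^ 2 + 1 with hNdef
  obtain ⟨T, h1, h2, h3, y, hy⟩ := exists_torus hq hK hN
  obtain ⟨hodd, hN1, hmul⟩ := num_facts hq.two_le hN
  obtain ⟨g, hg, hgT⟩ := conj_torus (by rw [h1]; exact hN1.ne') h3 (hx.trans h1.symm)
  have hcen : centralizer {x} = zpowers x := by
    refine le_antisymm (fun c hc => ?_) ?_
    · have h4 : g * c * g⁻¹ ∈ T := by
        refine h3 _ hg (fun h => ?_) ?_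
        · have h5 : x = 1 := by
            have : x = g⁻¹ * (g * x * g⁻¹) * g := by group
            rw [this, h]
            group
          rw [h5, orderOf_one] at hx
          omega
        · rw [mem_centralizer_singleton_iff] at hc ⊢
          calc g * c * g⁻¹ * (g * x * g⁻¹) = g * (c * x) * g⁻¹ := by group
            _ = g * (x * c) * g⁻¹ := by rw [hc]
            _ = g * x * g⁻¹ * (g * c * g⁻¹) := by group
      rw [← hgT] at h4
      obtain ⟨n, hn⟩ := mem_zpowers_iff.1 h4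
      refine mem_zpowers_iff.2 ⟨n, ?_⟩
      rw [conj_zpow] at hn
      exact mul_left_cancel (mul_right_cancel hn)
    · rw [zpowers_le, mem_centralizer_singleton_iff]
  refine ⟨hcen, ?_⟩
  have e1 := hy _ hg
  let w : ↥(twistedD4 K q) := g⁻¹ * y⁻¹ * g
  have hw : w * x * w⁻¹ = x ^ (q ^ 3) := by
    have h4 : (g * x * g⁻¹) ^ (q ^ 3) = y⁻¹ * (g * x * g⁻¹) * y := by
      conv_rhs => rw [← e1]
      group
    rw [conj_pow] at h4
    have h5 : x ^ (q ^ 3) = g⁻¹ * (g * x ^ (q ^ 3) * g⁻¹) * g := by group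
    rw [h5, h4]
    show g⁻¹ * y⁻¹ * g * x * (g⁻¹ * y⁻¹ * g)⁻¹ = _
    group
  have hw2 : w ^ 2 * x * (w ^ 2)⁻¹ = x⁻¹ := by
    have h4 : w ^ 2 * x * (w ^ 2)⁻¹ = w * (w * x * w⁻¹) * w⁻¹ := by
      rw [pow_two, mul_inv_rev]
      simp only [mul_assoc]
    rw [h4, hw, ← conj_pow, hw, ← pow_mul, eq_inv_iff_mul_eq_one, ← pow_succ, ← orderOf_dvd_iff_pow_eq_one, hx,
      ← pow_add]
    exact ⟨q ^ 2 + 1, by rw [mul_comm, hmul]⟩
  have hx2 : x ≠ x⁻¹ := by
    intro h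
    have h4 : x ^ 2 = 1 := by rw [pow_two]; nth_rw 2 [h]; exact mul_inv_cancel x
    have h5 := orderOf_dvd_of_pow_eq_one h4
    rw [hx] at h5
    have h6 := (Nat.dvd_prime Nat.prime_two).1 h5
    rcases h6 with h6 | h6
    · omega
    · rw [h6] at hodd
      exact absurd hodd (by decide)
  have hw1 : w ^ 2 ≠ 1 := by
    intro h
    rw [h, one_mul, inv_one, mul_one] at hw2
    exact hx2 hw2
  have hw4 : (w ^ 2) ^ 2 = 1 := by
    set j := w ^ 2 with hj
    have h4 : j ^ 2 ∈ zpowers x := by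
      rw [← hcen, mem_centralizer_singleton_iff]
      have h5 : j * (j * x * j⁻¹) * j⁻¹ = x := by
        rw [hw2]
        have h6 : j * x⁻¹ * j⁻¹ = (j * x * j⁻¹)⁻¹ := by group
        rw [h6, hw2, inv_inv]
      have h7 : j ^ 2 * x * (j ^ 2)⁻¹ = x := by
        rw [pow_two, mul_inv_rev]
        calc j * j * x * (j⁻¹ * j⁻¹) = j * (j * x * j⁻¹) * j⁻¹ := by simp only [mul_assoc]
          _ = x := h5
      exact mul_inv_eq_iff_eq_mul.1 h7
    obtain ⟨n, hn⟩ := mem_zpowers_iff.1 h4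
    have h5 : j * (j ^ 2) * j⁻¹ = (j ^ 2)⁻¹ := by
      rw [← hn, ← conj_zpow, hw2, inv_zpow]
    have h6 : j ^ 2 = (j ^ 2)⁻¹ := by
      rw [← h5]
      group
    have h7 : (j ^ 2) ^ 2 = 1 := by rw [pow_two (j ^ 2)]; nth_rw 2 [h6]; exact mul_inv_cancel _
    have h8 : orderOf (j ^ 2) ∣ N := by
      rw [← hx]
      exact orderOf_dvd_of_mem_zpowers h4
    have h9 := orderOf_dvd_of_pow_eq_one h7
    have h10 : orderOf (j ^ 2) ∣ 1 := by
      have h11 := Nat.dvd_gcd h8 h9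
      rwa [(Nat.Coprime.symm hodd.coprime_two_left : N.Coprime 2)] at h11
    exact orderOf_eq_one_iff.1 (Nat.dvd_one.1 h10)
  refine ⟨w, hw, ?_, hw2, hw4, hw1⟩
  have h4 : w ^ 2 ^ (1 + 1) = 1 := by
    rw [show (2 : ℕ) ^ (1 + 1) = 2 * 2 by norm_num, pow_mul]
    exact hw4
  have h5 : ¬ w ^ 2 ^ 1 = 1 := by rw [pow_one]; exact hw1
  have := orderOf_eq_prime_pow (p := 2) h5 h4
  rw [this]
  norm_num

end Cfsg.Agent.H512.TDFour
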